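import Cfsg.Agent.H274.Tits.NumSp
import Cfsg.Agent.H163.PG.Ord
import Cfsg.Agent.S1163
import Cfsg.Agent.S1069
import Cfsg.Agent.S2126
import Cfsg.Agent.S2127

/-!
# S3414, case (B): the rows of Lie type
-/

set_option autoImplicit false
open Cfsg

namespace Cfsg.Agent.H274.Tits

open Cfsg.Agent.H384.TwoTrans Cfsg.Agent.H163.PG

universe u v w

variable {G : Type u} {Ω : Type v} [Group G] [MulAction G Ω] {T : Subgroup G} {n s t T₂ : ℕ}

theorem Dat.center_eq_bot (D : Dat Ω T n s t T₂) {S : Type w} [Group S] (e : ↥T ≃* S) : Subgroup.center S = ⊥ := by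
  have := D.A.simple
  have hS : IsSimpleGroup S := e.symm.isSimpleGroup
  rcases (inferInstance : (Subgroup.center S).Normal).eq_bot_or_eq_top with h | h
  · exact h
  · exfalso
    apply D.A.nonab
    refine ⟨⟨fun x y => e.injective ?_⟩⟩
    rw [map_mul, map_mul]
    have h1 : e x ∈ Subgroup.center S := by rw [h]; exact Subgroup.mem_top _
    exact (Subgroup.mem_center_iff.1 h1 (e y)).symm

theorem exists_pf (F : Type) [Field F] [Fintype F] : ∃ p f : ℕ, p.Prime ∧ 1 ≤ f ∧ Fintype.card F = p ^ f := by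
  obtain ⟨r, hchar⟩ := CharP.exists F
  obtain ⟨⟨f, hf0⟩, hr, hf⟩ := FiniteField.card F r
  exact ⟨r, f, hr, hf0, hf⟩

/-- cancel `(t + 1) t` -/
theorem cancel_t {t T₂ M : ℕ} (ht : 2 ≤ t) (h : (t + 1) * t * T₂ ∣ (t + 1) * t * M) : T₂ ∣ M :=
  Nat.dvd_of_mul_dvd_mul_left (Nat.mul_pos (by omega) (by omega)) h

/-- **`PSL_d(q)`** -/
theorem Dat.psl (D : Dat Ω T n s t T₂) (F : Type) [Field F] [Fintype F] (d : ℕ) (hd : 2 ≤ d)
    (hd2 : d = 2 → 4 ≤ Fintype.card F) (e : Nonempty (T ≃* Matrix.ProjectiveSpecialLinearGroup (Fin d) F))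
    (hn : Nat.card Ω * (Fintype.card F - 1) = Fintype.card F ^ d - 1) : RowOut T n s t T₂ := by
  obtain ⟨e⟩ := e
  obtain ⟨p, f, hp, hf, hF⟩ := exists_pf F
  have ht2 := D.N.t2
  rw [D.hΩ] at hn
  by_cases h3 : 3 ≤ d
  · right
    left
    refine ⟨p, d, f, h3, hf, hp, ?_, F, inferInstance, inferInstance, hF, ⟨e⟩⟩
    rw [← hF]
    exact hn
  have hd' : d = 2 := by omega
  subst hd'
  have h4 := hd2 rfl
  have htq : t = Fintype.card F := by
    have h5 : Fintype.card F ^ 2 - 1 = (Fintype.card F + 1) * (Fintype.card F - 1) := by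
      have := Nat.sq_sub_sq (Fintype.card F) 1
      rwa [one_pow] at this
    rw [h5] at hn
    have h6 := Nat.eq_of_mul_eq_mul_right (by omega) hn
    omega
  have hdvd := D.dvd e
  have hZ := D.center_eq_bot e
  have hc := card_psl (F := F) (n := 2) le_rfl
  rw [show 2 * (2 - 1) / 2 = 1 by norm_num, pow_one, show 2 - 1 = 1 by norm_num, Finset.prod_range_one, zero_add] at hc
  rw [card_out_psl_two hp hf hF h4 hZ] at hdvd
  rw [← htq] at hc hdvd h4
  by_cases h44 : t = 4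
  · left
    rw [Nat.card_congr e.toEquiv]
    rw [h44] at hc ⊢
    rw [show Nat.gcd 2 (4 - 1) = 1 by norm_num, one_mul] at hc
    rw [hc]
    decide
  · right
    right
    have h5 : (t + 1) * t * T₂ ∣ (t + 1) * t * ((t - 1) * f) := by
      have e1 : (t + 1) * t * ((t - 1) * f) =
          Nat.card (Matrix.ProjectiveSpecialLinearGroup (Fin 2) F) * (f * Nat.gcd 2 (t - 1)) := by
        have h5 : t ^ 2 - 1 = (t + 1) * (t - 1) := by
          have := Nat.sq_sub_sq t 1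
          rwa [one_pow] at this
        rw [h5] at hc
        calc (t + 1) * t * ((t - 1) * f) = t * ((t + 1) * (t - 1)) * f := by ring
          _ = _ := by rw [← hc]; ring
      rw [e1]
      exact hdvd
    exact ⟨⟨p, num_psl2B D.N hp hf (htq.trans hF) (by omega) (cancel_t ht2 h5)⟩,
      Or.inr (Or.inr ⟨p, f, hp, htq.trans hF⟩)⟩

/-- **`Sp_2m(2)`** -/
theorem Dat.sp (D : Dat Ω T n s t T₂) (F : Type) [Field F] [Fintype F] (m : ℕ) (hF : Fintype.card F = 2) (hm : 3 ≤ m)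
    (e : Nonempty (T ≃* Cfsg.PSp m F))
    (hn : Nat.card Ω = 2 ^ (m - 1) * (2 ^ m + 1) ∨ Nat.card Ω = 2 ^ (m - 1) * (2 ^ m - 1)) : RowOut T n s t T₂ := by
  obtain ⟨e⟩ := e
  rw [D.hΩ] at hn
  have hdvd := D.dvd e
  have hZ := D.center_eq_bot e
  have hc := card_psp (F := F) (n := m) (by omega)
  rw [hF, show Nat.gcd 2 (2 - 1) = 1 by norm_num, one_mul] at hc
  rw [card_out_psp Nat.prime_two le_rfl (by rw [hF, pow_one]) (by omega) (by omega) hZ, if_neg (by omega), hc] at hdvd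
  norm_num at hdvd
  have h := num_spB D.N hm hn hdvd
  exact Or.inr (Or.inr ⟨h.1, Or.inl h.2⟩)

/-- **`PSU₃(q)`** -/
theorem Dat.psu (D : Dat Ω T n s t T₂) (F : Type) [Field F] [Fintype F] (q : ℕ) (hq : 3 ≤ q)
    (hF : Fintype.card F = q ^ 2) (e : Nonempty (T ≃* Cfsg.PSU 3 F q)) (hn : Nat.card Ω = q ^ 3 + 1) :
    RowOut T n s t T₂ := by
  obtain ⟨e⟩ := e
  obtain ⟨p, g, hp, hg, hFp⟩ := exists_pf F
  have ht2 := D.N.t2
  obtain ⟨f, hf, hqf⟩ : ∃ f, 1 ≤ f ∧ q = p ^ f := by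
    have h1 : q ∣ p ^ g := by
      rw [← hFp, hF]
      exact dvd_pow_self q (by norm_num)
    obtain ⟨f, -, hf⟩ := (Nat.dvd_prime_pow hp).1 h1
    refine ⟨f, ?_, hf⟩
    by_contra h2
    have : f = 0 := by omega
    subst this
    rw [pow_zero] at hf
    omega
  rw [D.hΩ] at hn
  have htq : t = q ^ 3 := by omega
  have hdvd := D.dvd e
  have hZ := D.center_eq_bot e
  have hc := S0280.result hF 3 (by norm_num)
  rw [card_out_psu hp hf hqf hF le_rfl (by omega) hZ] at hdvd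
  have hprod : ∏ i ∈ Finset.range 3, (if Even i then q ^ (i + 1) + 1 else q ^ (i + 1) - 1) =
      (q + 1) * (q ^ 2 - 1) * (q ^ 3 + 1) := by
    rw [Finset.prod_range_succ, Finset.prod_range_succ, Finset.prod_range_one]
    rw [if_pos (by decide), if_neg (by decide), if_pos (by decide)]
    norm_num
  rw [hprod, show 3 * (3 - 1) / 2 = 3 by norm_num] at hc
  have hc' : Nat.gcd 3 (q + 1) * Nat.card (Cfsg.PSU 3 F q) = q ^ 3 * ((q ^ 2 - 1) * (q ^ 3 + 1)) := by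
    apply Nat.eq_of_mul_eq_mul_left (show 0 < q + 1 by omega)
    calc (q + 1) * (Nat.gcd 3 (q + 1) * Nat.card (Cfsg.PSU 3 F q)) =
        Nat.gcd 3 (q + 1) * ((q + 1) * Nat.card (Cfsg.PSU 3 F q)) := by ring
      _ = _ := by rw [hc]; ring
  right
  right
  have h5 : (t + 1) * t * T₂ ∣ (t + 1) * t * ((q ^ 2 - 1) * (2 * f)) := by
    have e1 : (t + 1) * t * ((q ^ 2 - 1) * (2 * f)) = Nat.card (Cfsg.PSU 3 F q) * (Nat.gcd 3 (q + 1) * (2 * f)) := by
      calc (t + 1) * t * ((q ^ 2 - 1) * (2 * f)) = q ^ 3 * ((q ^ 2 - 1) * (q ^ 3 + 1)) * (2 * f) := by rw [htq]; ring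
        _ = _ := by rw [← hc']; ring
    rw [e1]
    exact hdvd
  have h6 := cancel_t ht2 h5
  rw [hqf] at h6 hq htq
  exact ⟨⟨p, num_psuB D.N hp hf htq hq h6⟩, Or.inr (Or.inr ⟨p, f * 3, hp, by rw [htq, pow_mul]⟩)⟩

/-- **`Sz(q)`** -/
theorem Dat.sz (D : Dat Ω T n s t T₂) (F : Type) [Field F] [Fintype F] (m : ℕ) (hm : 1 ≤ m)
    (hF : Fintype.card F = 2 ^ (2 * m + 1)) (e : Nonempty (T ≃* ↥(Cfsg.Lie.Sz F (2 ^ (m + 1)))))
    (hn : Nat.card Ω = Fintype.card F ^ 2 + 1) : RowOut T n s t T₂ := by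
  obtain ⟨e⟩ := e
  have ht2 := D.N.t2
  rw [D.hΩ, hF] at hn
  have hdvd := D.dvd e
  rw [(S1163.result hm hF).1, S2126.result hm hF] at hdvd
  obtain ⟨q, hq⟩ : ∃ q, q = 2 ^ (2 * m + 1) := ⟨_, rfl⟩
  rw [← hq] at hn hdvd
  have htq : t = q ^ 2 := by omega
  have h5 : (t + 1) * t * T₂ ∣ (t + 1) * t * ((q - 1) * (2 * m + 1)) := by
    have e1 : (t + 1) * t * ((q - 1) * (2 * m + 1)) = q ^ 2 * (q - 1) * (q ^ 2 + 1) * (2 * m + 1) := by rw [htq]; ring
    rw [e1]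
    exact hdvd
  have h6 := cancel_t ht2 h5
  have h2q : 2 ∣ q := by rw [hq]; exact dvd_pow_self 2 (by omega)
  have hq1 : 1 ≤ q := by rw [hq]; exact Nat.one_le_two_pow
  right
  right
  refine ⟨⟨2, D.N.chn Nat.prime_two ?_ ?_⟩, Or.inr (Or.inr ⟨2, (2 * m + 1) * 2, Nat.prime_two, by rw [htq, hq, pow_mul]⟩)⟩
  · rw [htq]
    exact dvd_pow h2q (by norm_num)
  · intro h7
    rcases Nat.prime_two.dvd_mul.1 (h7.trans h6) with h | h
    · omega
    · omega

/-- **`²G₂(q)`** -/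
theorem Dat.ree (D : Dat Ω T n s t T₂) (K : Type) [Field K] [Fintype K] (m : ℕ) (hm : 1 ≤ m)
    (hK : Fintype.card K = 3 ^ (2 * m + 1)) (e : Nonempty (T ≃* ↥(Cfsg.Lie.twistedG2 K (3 ^ m))))
    (hn : Nat.card Ω = Fintype.card K ^ 3 + 1) : RowOut T n s t T₂ := by
  obtain ⟨e⟩ := e
  have ht2 := D.N.t2
  rw [D.hΩ, hK] at hn
  have hdvd := D.dvd e
  rw [S1069.result hK, S2127.result hm hK] at hdvd
  have htq : t = (3 ^ (2 * m + 1)) ^ 3 := by omega
  have h5 : (t + 1) * t * T₂ ∣ (t + 1) * t * ((3 ^ (2 * m + 1) - 1) * (2 * m + 1)) := by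
    have e1 : (t + 1) * t * ((3 ^ (2 * m + 1) - 1) * (2 * m + 1)) =
        (3 ^ (2 * m + 1)) ^ 3 * (3 ^ (2 * m + 1) - 1) * ((3 ^ (2 * m + 1)) ^ 3 + 1) * (2 * m + 1) := by rw [htq]; ring
    rw [e1]
    exact hdvd
  have h6 := cancel_t ht2 h5
  have hU : ¬ 3 ∣ 3 ^ (2 * m + 1) - 1 := by
    intro h1
    have h2 : 3 ∣ 3 ^ (2 * m + 1) := dvd_pow_self 3 (by omega)
    have h3 := (Nat.dvd_sub_iff_right (Nat.one_le_pow _ _ (by norm_num)) h2).1 h1
    omega
  have h7 := fac_le hU (by omega) h6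
  have h8 := pow_fac_le 3 (show 2 * m + 1 ≠ 0 by omega)
  have h9 : (2 * m + 1).factorization 3 < 3 ^ (2 * m + 1).factorization 3 := Nat.lt_pow_self (by norm_num)
  have h10 : t.factorization 3 = 3 * (2 * m + 1) := by rw [htq, ← pow_mul, fac_pow Nat.prime_three, mul_comm]
  right
  right
  refine ⟨⟨3, Nat.prime_three, ?_⟩, Or.inr (Or.inr ⟨3, (2 * m + 1) * 3, Nat.prime_three, by rw [htq, pow_mul]⟩)⟩
  rw [h10]
  rcases D.N.hn with rfl | rfl | rfl <;> norm_num <;> omega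

end Cfsg.Agent.H274.Tits
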